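import Cfsg.Agent.H98.MaximalSLSubfield

/-!
# Conjugates of the subfield subgroup in a linear group of dimension at least nine
-/

set_option autoImplicit false
set_option linter.style.haveILetI false
set_option linter.unusedSectionVars false

namespace Cfsg.Agent.H25.GeoLists

/-- Every conjugate of the subfield group is maximal in the special linear group, for `n ≥ 9`. -/
theorem sl_subfield_conj_maximal {F : Type*} [Field F] [Fintype F] {n : ℕ} (hn : 9 ≤ n) (F₀ : Subfield F) {r : ℕ}
    (hr : r.Prime) (hcard : Fintype.card F = Nat.card F₀ ^ r) (P : Matrix.GeneralLinearGroup (Fin n) F) :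
    Cfsg.Geo.IsMaximalIn (Cfsg.Geo.specialLinear (Fin n) F)
      (Cfsg.Geo.subfieldSubgroup F₀ P ⊓ Cfsg.Geo.specialLinear (Fin n) F) := by
  haveI : Nonempty (Fin n) := ⟨⟨0, by omega⟩⟩
  have h := Cfsg.Agent.H98.isMaximalIn_conj P (Cfsg.Agent.H98.sl_subfield_maximal' hn hr hcard)
  have hinj : Function.Injective (MulAut.conj P).toMonoidHom := (MulAut.conj P).injective
  have hsl : (Cfsg.Geo.specialLinear (Fin n) F).map (MulAut.conj P).toMonoidHom =
      Cfsg.Geo.specialLinear (Fin n) F := by
    refine le_antisymm ?_ fun g hg => ⟨P⁻¹ * g * P, ?_, ?_⟩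
    · rintro _ ⟨g, hg, rfl⟩
      exact Cfsg.Agent.H98.sl_conj_mem P g hg
    · have := Cfsg.Agent.H98.sl_conj_mem P⁻¹ g hg
      rwa [inv_inv] at this
    · change P * (P⁻¹ * g * P) * P⁻¹ = g
      group
  rw [Subgroup.map_inf _ _ _ hinj, hsl, ← Cfsg.Agent.H98.subfieldSubgroup_eq_map] at h
  exact h

end Cfsg.Agent.H25.GeoLists
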